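import Cfsg.Agent.Lib.J2Unique.Words
import Mathlib.GroupTheory.SpecificGroups.Alternating

/-!
Finite checks on `A₄ × A₅` and on six points.
-/

set_option autoImplicit false
set_option maxRecDepth 100000
set_option synthInstance.maxSize 4000
set_option synthInstance.maxHeartbeats 400000

namespace CfsgLib.J2Unique

open CfsgLib.SporRecognition.CosetCert Equiv

/-- The group `A₄ × A₅`. -/
abbrev A45 := alternatingGroup (Fin 4) × alternatingGroup (Fin 5)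

def v0 : alternatingGroup (Fin 4) :=
  ⟨swap 0 1 * swap 2 3, Perm.mem_alternatingGroup.2 (by decide)⟩
def a4 : alternatingGroup (Fin 4) :=
  ⟨swap 0 1 * swap 1 2, Perm.mem_alternatingGroup.2 (by decide)⟩
def zA : alternatingGroup (Fin 5) :=
  ⟨swap 0 1 * swap 2 3, Perm.mem_alternatingGroup.2 (by decide)⟩
def dA : alternatingGroup (Fin 5) :=
  ⟨swap 0 1 * swap 0 3, Perm.mem_alternatingGroup.2 (by decide)⟩
def wA : alternatingGroup (Fin 5) :=
  ⟨swap 0 4 * swap 2 3, Perm.mem_alternatingGroup.2 (by decide)⟩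

/-- The values of the letters, `α` standing for the element of order three of `A₄`. -/
def gK (α : alternatingGroup (Fin 4)) : Fin 5 → A45 :=
  ![(v0, 1), (α, 1), (1, dA), (1, wA), 1]

theorem base_values : ∀ α : alternatingGroup (Fin 4), α = a4 ∨ α = a4⁻¹ →
    (baseW.all fun w => decide ((w.map fun x => cond x.2 (gK α x.1) (gK α x.1)⁻¹).prod = 1)) = true ∧
    (Zw.map fun x => cond x.2 (gK α x.1) (gK α x.1)⁻¹).prod = (1, zA) := by
  intro α h
  rcases h with rfl | rfl <;> decide +kernel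

theorem dA_values : (dA : Perm (Fin 5)) 0 = 3 ∧ (dA : Perm (Fin 5)) 3 = 1 ∧
    (dA : Perm (Fin 5)) 1 = 0 ∧ dA ^ 3 = 1 ∧ wA * wA = 1 ∧ (dA * wA) ^ 5 = 1 ∧
    dA ≠ 1 ∧ wA ≠ 1 ∧ dA * wA * dA * wA * dA⁻¹ * wA * dA⁻¹ = zA ∧ zA ≠ 1 ∧ zA * zA = 1 ∧
    dA⁻¹ * wA * dA ≠ 1 ∧ dA⁻¹ * wA * dA * (dA⁻¹ * wA * dA) = 1 := by decide +kernel

theorem four_facts : v0 ≠ 1 ∧ v0 * v0 = 1 ∧ a4 ^ 3 = 1 ∧ a4 ≠ 1 ∧
    v0 * a4 ≠ a4 * v0 := by decide +kernel

theorem four_conj : ∀ v : alternatingGroup (Fin 4), v ≠ 1 → v * v = 1 →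
    ∃ g : alternatingGroup (Fin 4), g * v * g⁻¹ = v0 := by decide +kernel

theorem five_conj : ∀ y : alternatingGroup (Fin 5), y ≠ 1 → y * y = 1 →
    ∃ g : alternatingGroup (Fin 5), g * y * g⁻¹ = zA := by decide +kernel

theorem cube_fixed : ∀ π : alternatingGroup (Fin 5), π ^ 3 = 1 →
    ∃ i j : Fin 5, i ≠ j ∧ (π : Perm (Fin 5)) i = i ∧ (π : Perm (Fin 5)) j = j := by decide +kernel

theorem invol_fixed_unique : ∀ π : alternatingGroup (Fin 5), π ≠ 1 → π * π = 1 →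
    ∀ i j : Fin 5, (π : Perm (Fin 5)) i = i → (π : Perm (Fin 5)) j = j → i = j := by decide +kernel

/-- The element of order three on six points. -/
def dS : Perm (Fin 6) := swap 0 1 * swap 0 3
/-- The involution on six points. -/
def wS : Perm (Fin 6) := swap 0 4 * swap 2 3
/-- The central involution on six points. -/
def zS : Perm (Fin 6) := swap 0 1 * swap 2 3
/-- The new involution on six points. -/
def rS : Perm (Fin 6) := swap 2 3 * swap 4 5

theorem norm_three : ∀ P : Perm (Fin 6), P 5 = 5 → P * P * P = 1 → P ≠ 1 →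
    ∃ σ : Perm (Fin 6), σ 5 = 5 ∧ σ * P * σ⁻¹ = dS := by decide +kernel

theorem norm_two : ∀ W : Perm (Fin 6), W 5 = 5 → W * W = 1 → W ≠ 1 → (dS * W) ^ 5 = 1 →
    ∃ σ : Perm (Fin 6), σ 5 = 5 ∧ σ * dS * σ⁻¹ = dS ∧ σ * W * σ⁻¹ = wS := by decide +kernel

theorem six_facts : dS * wS * dS * wS * dS⁻¹ * wS * dS⁻¹ = zS ∧ (rS * wS) ^ 3 = 1 ∧
    (rS * (dS⁻¹ * wS * dS)) ^ 3 = 1 ∧ (rS * dS) ^ 4 = 1 ∧ rS * zS * zS = rS := by decide +kernel

theorem norm_new : ∀ R : Perm (Fin 6), R * R = 1 → R 5 ≠ 5 → Perm.sign R = 1 →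
    R * zS = zS * R → R = rS ∨ R = rS * zS := by decide +kernel

end CfsgLib.J2Unique
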