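/-!
Five elements of the Hall–Janko group on a hundred points, with their inverses, as packed codes,
and the words connecting them with the standard generators.
-/

namespace CfsgLib.J2Unique

/-- The codes: the five elements, then their inverses. -/
def codes : List Nat := [
  1003127013736345137997779409393063339248096698887247929640140451432267908820260377409894594413487687929352548963435140208907046135316433222640359496653703013942714067300078481817466017782067888006063945464235011,
  2247238047009084009633082225405421201404975827249644603619789396600606744710429010763432078343781642473236013507773095858290563249478028773965488029384110798324607574899954351238035660538787091650444948706297088,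
  483551572697550481346813191860282806310076749682824854118110021587715080205688458036059758919880911254308375499802468432065094798440708451925742067378798434142559670348144146481589870916008618899255935517364653,
  1550608688523245902389789884194480022329648192508360014565894233309654098210503401731837227850190028725771051677458980168161191520769972751100769183027171457473334824372713231779206981461848237137644800010387584,
  4078487677371064503732268441897238111574977126963439333759386243679047016969494442887769922868643046590539082494405887482239575940616317666194682257257188048126159609633046878186821331997050419466878773631818185,
  1003127013736345137997779409393063339248096698887247929640140451432267908820260377409894594413487687929352548963435140208907046135316433222640359496653703013942714067300078481817466017782067888006063945464235011,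
  1944455058883299588356528247556444838166974676365815260920481618682980892430155473658186439952524132472413709777741584115878383638458829109344287833359562759472976777693833428515353314024178748770885619467505408,
  894635098083689452384485803738053820594823450584653437978924851659254816114466672571177433746272977499571740364972041770323370063987996592251373771604877785692334482729434538783158550580556637754866709859931610,
  1550608688523245902389789884194480022329648192508360014565894233309654098210503401731837227850190028725771051677458980168161191520769972751100769183027171457473334824372713231779206981461848237137644800010387584,
  4078487677371064503732268441897238111574977126963439333759386243679047016969494442887769922868643046590539082494405887482239575940616317666194682257257188048126159609633046878186821331997050419466878773631818185]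

/-- The elements as words in the standard generators. -/
def inWords : List (List Nat) := [[2, 1, 0, 2, 3, 1, 2, 1, 0, 1, 3, 0, 1, 3, 0, 1, 0, 2, 1, 0], [2, 0, 1, 2, 1, 0, 1, 0, 3, 1, 3, 1, 0], [0, 1, 0, 2, 3, 1, 2, 1, 0], [3, 1, 2, 1, 0, 1, 2, 1, 3], [3, 0, 1, 3, 2, 0, 1, 0, 2, 3, 1, 0, 3, 2], [2, 1, 0, 2, 3, 1, 2, 1, 0, 1, 3, 0, 1, 3, 0, 1, 0, 2, 1, 0], [0, 3, 1, 3, 0, 1, 0, 1, 0, 2, 1, 0, 2], [0, 1, 2, 1, 3, 2, 0, 1, 0], [3, 1, 2, 1, 0, 1, 2, 1, 3], [3, 0, 1, 3, 2, 0, 1, 0, 2, 3, 1, 0, 3, 2]]

/-- The standard generators as words in the elements. -/
def outWords : List (List Nat) := [[2, 4, 2, 0, 4, 2, 0, 4, 0], [2, 3, 1, 0, 4, 3, 2, 2, 0, 1, 1], [3, 1, 0, 4, 3, 0, 4, 3, 0, 4, 3, 0, 1, 1], [4, 3, 0, 4, 2, 2, 3, 2, 4, 3, 0, 4]]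

end CfsgLib.J2Unique
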