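import Cfsg.Agent.Lib.J2Unique.Words
import Cfsg.Agent.Lib.J2Unique.ModelData
import Cfsg.Agent.Lib.J2Ico.Group

/-!
The relations hold in the Hall–Janko group for five generators.
-/

set_option autoImplicit false
set_option maxRecDepth 100000

namespace CfsgLib.J2Unique

open CfsgLib.Mathieu CfsgLib.Mathieu.GraphAut CfsgLib.J2Ico CfsgLib.SporRecognition.CosetCert

/-- The index of a letter. -/
def idx (x : Fin 5 × Bool) : Nat := if x.2 then x.1.val else x.1.val + 5

theorem codes_check : (codes.all (isPerm7 100) && decide (codes.length = 10) &&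
    ((List.range 5).all fun i => (List.range 100).all fun x =>
      app7 (codes.getD i 0) (app7 (codes.getD (i + 5) 0) x) == x)) = true := by
  decide +kernel

theorem rels_check : ((allW 2).all fun w => wordValid codes (w.map idx) &&
    (List.range 100).all fun x => word7 codes (w.map idx) x == x) = true := by
  decide +kernel

theorem words_check : ((List.range 5).all fun i => wordValid setGens (inWords.getD i []) &&
    (List.range 100).all fun x => word7 setGens (inWords.getD i []) x == app7 (codes.getD i 0) x) &&
    ((List.range 4).all fun k => ((outWords.getD k []).all fun i => decide (i < 5)) &&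
      wordValid codes (outWords.getD k []) &&
      (List.range 100).all fun x =>
        word7 codes (outWords.getD k []) x == app7 (setGens.getD k 0) x) = true := by
  decide +kernel

/-- The five permutations. -/
noncomputable def perm5 (i : Fin 5) : Equiv.Perm (Fin 100) := perm7 100 (codes.getD i.val 0)

theorem codes_perm : ∀ c ∈ codes, isPerm7 100 c = true := by
  have h := codes_check
  simp only [Bool.and_eq_true, List.all_eq_true] at h
  exact h.1.1

theorem codes_mem {i : Nat} (hi : i < 10) : codes.getD i 0 ∈ codes := by
  have h := codes_check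
  simp only [Bool.and_eq_true, decide_eq_true_eq] at h
  exact getD_mem (h.1.2 ▸ hi)

theorem perm5_inv (i : Fin 5) : (perm5 i)⁻¹ = perm7 100 (codes.getD (i.val + 5) 0) := by
  refine inv_eq_of_mul_eq_one_right (Equiv.ext fun x => Fin.ext ?_)
  have h := codes_check
  simp only [Bool.and_eq_true, List.all_eq_true] at h
  have hx := h.2 i.val (List.mem_range.2 i.2) x.val (List.mem_range.2 x.2)
  rw [Equiv.Perm.mul_apply, perm5, perm7_apply (codes_perm _ (codes_mem (by omega))),
    perm7_apply (codes_perm _ (codes_mem (by omega)))]
  simpa using hx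

theorem evalW_perm5 (w : List (Fin 5 × Bool)) :
    evalW perm5 w = wordPerm7 100 codes (w.map idx) := by
  induction w with
  | nil => simp [evalW_eq_prod, wordPerm7]
  | cons x w ih =>
    rw [List.map_cons, wordPerm7, ← ih, evalW_eq_prod, evalW_eq_prod, List.map_cons, List.prod_cons]
    congr 1
    rcases x with ⟨i, _ | _⟩
    · simpa [idx] using perm5_inv i
    · simp [idx, perm5]

theorem model_rels : ∀ w ∈ allW 2, evalW perm5 w = 1 := by
  intro w hw
  have h := rels_check
  simp only [List.all_eq_true, Bool.and_eq_true] at h
  obtain ⟨hv, hx⟩ := h w hw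
  refine Equiv.ext fun x => Fin.ext ?_
  rw [evalW_perm5, wordPerm7_apply codes_perm hv]
  simpa using hx x.val (List.mem_range.2 x.2)

theorem wordPerm7_mem_closure (v : List Nat) (h : ∀ i ∈ v, i < 5) :
    wordPerm7 100 codes v ∈ Subgroup.closure (Set.range perm5) := by
  induction v with
  | nil => exact Subgroup.one_mem _
  | cons i v ih =>
    refine Subgroup.mul_mem _ (Subgroup.subset_closure ⟨⟨i, h i (List.mem_cons_self ..)⟩, rfl⟩) ?_
    exact ih fun j hj => h j (List.mem_cons_of_mem _ hj)

theorem closure_perm5 : Subgroup.closure (Set.range perm5) = J2.j2Group := by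
  have h := words_check
  simp only [Bool.and_eq_true, List.all_eq_true, decide_eq_true_eq] at h
  obtain ⟨hin, hout⟩ := h
  have hset : ∀ c ∈ setGens, perm7 100 c ∈ J2.j2Group := by
    intro c hc
    obtain ⟨k, hk, rfl⟩ := List.getElem_of_mem hc
    rw [← range_setHom]
    refine ⟨seedG ⟨k, lt_of_lt_of_eq hk setGens_length⟩, ?_⟩
    rw [setHom_seed, ← List.getD_eq_getElem _ 0 hk]
    rfl
  refine le_antisymm ((Subgroup.closure_le _).2 ?_) ?_
  · rintro _ ⟨i, rfl⟩
    obtain ⟨hv, hx⟩ := hin i.val (List.mem_range.2 i.2)
    have : perm5 i = wordPerm7 100 setGens (inWords.getD i.val []) := by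
      refine Equiv.ext fun x => Fin.ext ?_
      rw [wordPerm7_apply setGens_perm hv, perm5, perm7_apply (codes_perm _ (codes_mem (by omega)))]
      exact (eq_of_beq (hx x.val (List.mem_range.2 x.2))).symm
    rw [this]
    exact wordPerm7_mem hset hv
  · rw [← range_setHom, MonoidHom.range_eq_map, ← closure_seedG, MonoidHom.map_closure,
      Subgroup.closure_le]
    rintro _ ⟨_, ⟨k, rfl⟩, rfl⟩
    obtain ⟨⟨hlt, hv⟩, hx⟩ := hout k.val (List.mem_range.2 k.2)
    have : setHom (seedG k) = wordPerm7 100 codes (outWords.getD k.val []) := by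
      rw [setHom_seed]
      refine Equiv.ext fun x => Fin.ext ?_
      rw [wordPerm7_apply codes_perm hv]
      refine (perm7_apply (setGens_perm _ (setGens_mem k)) x).trans ?_
      exact (eq_of_beq (hx x.val (List.mem_range.2 x.2))).symm
    rw [SetLike.mem_coe, this]
    exact wordPerm7_mem_closure _ hlt

end CfsgLib.J2Unique
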