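import Cfsg.Agent.Lib.SporRecognition.CosetCert.Upper

/-!
Relations of a group of Hall–Janko type: letters `0 = t`, `1 = a`, `2 = d`, `3 = w`, `4 = r`,
with `⟨t, a, d, w⟩ ≅ A₄ × A₅` and `r` in the centralizer of `a`.
-/

set_option autoImplicit false

namespace CfsgLib.J2Unique

/-- Words. -/
abbrev Wd := List (Fin 5 × Bool)

def Tl : Wd := [(0, true)]
def Al : Wd := [(1, true)]
def Ai : Wd := [(1, false)]
def Dl : Wd := [(2, true)]
def Di : Wd := [(2, false)]
def Wl : Wd := [(3, true)]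
def Rl : Wd := [(4, true)]

/-- `m`-th power of a word. -/
def wPow (w : Wd) (m : Nat) : Wd := (List.replicate m w).flatten

/-- The word of the central involution `z`. -/
def Zw : Wd := Dl ++ Wl ++ Dl ++ Wl ++ Di ++ Wl ++ Di

/-- The relations of `A₄ × A₅`. -/
def baseW : List Wd :=
  [Tl ++ Tl, wPow Al 3, wPow (Tl ++ Al) 3, wPow Dl 3, Wl ++ Wl, wPow (Dl ++ Wl) 5,
    Tl ++ Dl ++ Tl ++ Di, Tl ++ Wl ++ Tl ++ Wl, Al ++ Dl ++ Ai ++ Di, Al ++ Wl ++ Ai ++ Wl]

/-- The relations involving `r`. -/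
def extraW : List Wd :=
  [Rl ++ Rl, Rl ++ Al ++ Rl ++ Ai, wPow (Rl ++ Wl) 3, wPow (Rl ++ Di ++ Wl ++ Dl) 3,
    wPow (Rl ++ Tl) 4 ++ Zw]

/-- All relations; `p` is the exponent of `a⁻¹` in the relation for `(r d)⁴`. -/
def allW (p : Nat) : List Wd := baseW ++ extraW ++ [wPow (Rl ++ Dl) 4 ++ wPow Ai p]

/-- The subgroup words. -/
def subW : List Wd := [Tl, Al, Dl, Wl]

/-- The letters. -/
def lets : List (Fin 5 × Bool) :=
  [(0, true), (1, true), (1, false), (2, true), (2, false), (3, true), (4, true)]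

end CfsgLib.J2Unique
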